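import Cfsg.Agent.S2566
import Cfsg.Agent.Char.PermChar
import Cfsg.Agent.Char.Kernel

/-!
# The Steinberg character of the plus-type group of dimension four over two elements
-/

set_option autoImplicit false
set_option linter.style.haveILetI false

namespace Cfsg.Agent.ChamberSt.PlusFourTwo

open Matrix Cfsg.Agent.S2566
open scoped commutatorElement

abbrev S3 := Equiv.Perm (Fin 3)

/-- Pairs with equal signs. -/
def signKer : Subgroup (S3 × S3) :=
  ((Equiv.Perm.sign.comp (MonoidHom.fst S3 S3)) * Equiv.Perm.sign.comp (MonoidHom.snd S3 S3)).ker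

theorem mem_signKer {x : S3 × S3} :
    x ∈ signKer ↔ Equiv.Perm.sign x.1 * Equiv.Perm.sign x.2 = 1 := Iff.rfl

theorem card_signKer : Nat.card signKer = 18 := by
  rw [show Nat.card signKer =
    Nat.card {x : S3 × S3 // Equiv.Perm.sign x.1 * Equiv.Perm.sign x.2 = 1} from rfl,
    Nat.card_eq_fintype_card]
  decide +kernel

theorem chi_spec :
    Cfsg.IsIrrCharacter S3 (fun g => Char.permChar (G := S3) (Fin 3) g - 1) ∧
      (Char.permChar (G := S3) (Fin 3) 1 - 1 = (2 : ℂ)) ∧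
      ∀ g : S3, g * g = 1 → g ≠ 1 → Char.permChar (G := S3) (Fin 3) g - 1 = (0 : ℂ) := by
  classical
  haveI : MulAction.IsPretransitive S3 (Fin 3) := ⟨fun a b => ⟨Equiv.swap a b, Equiv.swap_apply_left a b⟩⟩
  have hfix : ∀ g : S3, Char.permChar (G := S3) (Fin 3) g =
      ((Finset.univ.filter fun x : Fin 3 => g x = x).card : ℂ) := fun g => by
    rw [Char.permChar, Nat.card_eq_fintype_card, Fintype.card_subtype]
    rfl
  refine ⟨(Char.isIrrCharacter_permChar_sub_one_iff (Fin 3) (by rw [Nat.card_fin]; norm_num)).2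
    (Equiv.Perm.isMultiplyPretransitive (Fin 3) 2), ?_, fun g hg hg1 => ?_⟩
  · rw [hfix]
    simp
    norm_num
  · have h : ∀ g : S3, g * g = 1 → g ≠ 1 → (Finset.univ.filter fun x : Fin 3 => g x = x).card = 1 := by
      decide +kernel
    rw [hfix, h g hg hg1]
    simp

variable {O : Type*} [Group O]

/-- A group with the structure of the wreath product of `S₃` by two points. -/
theorem steinberg_abstract [Finite O] (hO : Nat.card O = 72) (φ : S3 × S3 →* O)
    (hφ : Function.Injective φ) (t : O) (ht : ∀ x, t * φ x * t⁻¹ = φ x.swap) :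
    ∃ χ : ↥(commutator O) ⧸ Subgroup.center ↥(commutator O) → ℂ,
      Cfsg.IsIrrCharacter _ χ ∧
      ∀ P : Sylow 2 (↥(commutator O) ⧸ Subgroup.center ↥(commutator O)), χ 1 = Nat.card P ∧
        ∀ x, x ∈ P → x ≠ 1 → χ x = 0 := by
  have h72 : φ.range.index = 2 := by
    have h := φ.range.index_mul_card
    rw [hO, ← Nat.card_congr (MonoidHom.ofInjective hφ).toEquiv, Nat.card_prod, Nat.card_perm,
      Nat.card_fin] at h
    norm_num [Nat.factorial] at h
    omega
  have htR : t ∉ φ.range := by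
    rintro ⟨⟨c, d⟩, rfl⟩
    have h := ht (Equiv.swap 0 1, 1)
    rw [← map_inv, ← map_mul, ← map_mul] at h
    have h2 := congrArg Prod.fst (hφ h)
    simp at h2
  set L := signKer.map φ with hL
  have hcardL : Nat.card L = 18 := by
    rw [hL, ← Nat.card_congr (signKer.equivMapOfInjective φ hφ).toEquiv, card_signKer]
  have hLn : L.Normal := by
    refine ⟨fun n hn g => ?_⟩
    obtain ⟨x, hx, rfl⟩ := hn
    have hconj : ∀ y z : S3 × S3, z ∈ signKer → φ y * φ z * (φ y)⁻¹ ∈ L := fun y z hz =>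
      ⟨y * z * y⁻¹, (MonoidHom.normal_ker _ : signKer.Normal).conj_mem z hz y, by simp⟩
    by_cases hg : g ∈ φ.range
    · obtain ⟨y, rfl⟩ := hg
      exact hconj y x hx
    · obtain ⟨y, hy⟩ : g * t ∈ φ.range :=
        (Subgroup.mul_mem_iff_of_index_two h72).2 (iff_of_false hg htR)
      have hg' : g = φ y * t⁻¹ := by rw [hy, mul_inv_cancel_right]
      have hti : t⁻¹ * φ x * t = φ x.swap := by
        have h := ht x.swap
        rw [Prod.swap_swap] at h
        rw [← h]; group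
      rw [hg', show φ y * t⁻¹ * φ x * (φ y * t⁻¹)⁻¹ = φ y * (t⁻¹ * φ x * t) * (φ y)⁻¹ by group, hti]
      refine hconj y _ ?_
      have hx' : Equiv.Perm.sign x.1 * Equiv.Perm.sign x.2 = 1 := hx
      rw [mem_signKer]
      rwa [mul_comm] at hx'
  have hL4 : L.index = 2 ^ 2 := by
    have h := L.index_mul_card
    rw [hO, hcardL] at h
    norm_num
    omega
  have hle : commutator O ≤ L := by
    haveI : Fact (Nat.Prime 2) := ⟨Nat.prime_two⟩
    rw [commutator_def, Subgroup.commutator_le]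
    intro g _ h _
    rw [← QuotientGroup.eq_one_iff, ← QuotientGroup.mk'_apply, map_commutatorElement,
      commutatorElement_eq_one_iff_mul_comm]
    exact @mul_comm _ (IsPGroup.commGroupOfCardEqPrimeSq (G := O ⧸ L) (p := 2) hL4).toCommMonoid.toCommMagma _ _
  have hge : L ≤ commutator O := by
    have hc : ∀ g h : O, ⁅g, h⁆ ∈ commutator O := fun g h =>
      Subgroup.commutator_mem_commutator (Subgroup.mem_top g) (Subgroup.mem_top h)
    rintro _ ⟨⟨a, b⟩, hab, rfl⟩
    have heven : Equiv.Perm.sign (a * b) = 1 := by rw [map_mul]; exact hab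
    have hd : ∀ x : S3, Equiv.Perm.sign x = 1 → ∃ c d : S3, c * d * c⁻¹ * d⁻¹ = x := by
      decide +kernel
    obtain ⟨c, d, hcd⟩ := hd _ heven
    have h1 : φ (a * b, 1) ∈ commutator O := by
      have := hc (φ (c, 1)) (φ (d, 1))
      rw [commutatorElement_def, ← map_inv, ← map_inv, ← map_mul, ← map_mul, ← map_mul] at this
      simpa [hcd] using this
    have h2 : φ (b⁻¹, b) ∈ commutator O := by
      have := hc t (φ (b, 1))
      rw [commutatorElement_def, ht, ← map_inv, ← map_mul] at this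
      simpa using this
    have := mul_mem h1 h2
    rwa [← map_mul, Prod.mk_mul_mk, mul_inv_cancel_right, one_mul] at this
  let e : ↥(commutator O) ≃* signKer :=
    (MulEquiv.subgroupCongr (le_antisymm hle hge)).trans (signKer.equivMapOfInjective φ hφ).symm
  have hcent : Subgroup.center ↥(commutator O) = ⊥ := by
    refine (Subgroup.eq_bot_iff_forall _).2 fun z hz => e.injective ?_
    rw [map_one]
    have hd : ∀ z : S3 × S3, Equiv.Perm.sign z.1 * Equiv.Perm.sign z.2 = 1 →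
        (∀ w : S3 × S3, Equiv.Perm.sign w.1 * Equiv.Perm.sign w.2 = 1 → w * z = z * w) → z = 1 := by
      decide +kernel
    refine Subtype.ext (hd _ (e z).2 fun w hw => ?_)
    obtain ⟨v, hv⟩ := e.surjective ⟨w, hw⟩
    have := congrArg (fun u => (e u : S3 × S3)) (Subgroup.mem_center_iff.1 hz v)
    simpa [hv] using this
  let e' : ↥(commutator O) ⧸ Subgroup.center ↥(commutator O) ≃* signKer :=
    ((QuotientGroup.quotientMulEquivOfEq hcent).trans QuotientGroup.quotientBot).trans e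
  let ψ : ↥(commutator O) ⧸ Subgroup.center ↥(commutator O) →* S3 :=
    ((MonoidHom.fst S3 S3).comp signKer.subtype).comp e'.toMonoidHom
  have hψ : Function.Surjective ψ := fun s => by
    obtain ⟨v, hv⟩ := e'.surjective ⟨(s, s), by rw [mem_signKer]; exact Int.units_mul_self _⟩
    exact ⟨v, by show (e' v : S3 × S3).1 = s; rw [hv]⟩
  obtain ⟨hirr, h1, hinv⟩ := chi_spec
  refine ⟨_, Char.isIrrCharacter_comp hirr ψ hψ, fun P => ?_⟩
  haveI : Fact (Nat.Prime 2) := ⟨Nat.prime_two⟩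
  have h18 : Nat.card (↥(commutator O) ⧸ Subgroup.center ↥(commutator O)) = 18 := by
    rw [Nat.card_congr e'.toEquiv, card_signKer]
  have hP : Nat.card P = 2 := by
    rw [P.card_eq_multiplicity, h18, show (18 : ℕ) = 2 * 3 ^ 2 by norm_num,
      Nat.factorization_mul (by norm_num) (by norm_num)]
    rw [Nat.Prime.factorization_pow Nat.prime_three, Nat.Prime.factorization Nat.prime_two]
    simp
  refine ⟨?_, fun x hx hx1 => ?_⟩
  · show Char.permChar (G := S3) (Fin 3) (ψ 1) - 1 = _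
    rw [map_one, h1, hP]; norm_num
  · have hxx : x * x = 1 := by
      have h : (⟨x, hx⟩ : P) ^ Nat.card P = 1 := pow_card_eq_one'
      rw [hP, pow_two] at h
      exact congrArg Subtype.val h
    refine hinv _ (by rw [← map_mul, hxx, map_one]) fun h0 => hx1 ?_
    have hd : ∀ z : S3 × S3, Equiv.Perm.sign z.1 * Equiv.Perm.sign z.2 = 1 → z * z = 1 → z.1 = 1 → z = 1 := by
      decide +kernel
    refine e'.injective ?_
    rw [map_one]
    refine Subtype.ext (hd _ (e' x).2 ?_ h0)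
    rw [← Subgroup.coe_mul, ← map_mul, hxx, map_one]; rfl

/-- The left factor. -/
def lHom : Matrix.SpecialLinearGroup (Fin 2) (ZMod 2) →*
    ↥(Cfsg.isometryGroup (ZMod 2) (Cfsg.quadFormPlus 2 (ZMod 2))) where
  toFun g := ⟨⟨Lm g.1, Lm (g⁻¹).1,
      by rw [← Lm_mul, ← Matrix.SpecialLinearGroup.coe_mul, mul_inv_cancel]; exact Lm_one,
      by rw [← Lm_mul, ← Matrix.SpecialLinearGroup.coe_mul, inv_mul_cancel]; exact Lm_one⟩,
    fun u _ => q_Lm g u⟩
  map_one' := Subtype.ext (Units.ext Lm_one)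
  map_mul' g h := Subtype.ext (Units.ext (Lm_mul g.1 h.1))

theorem exists_wreath : ∃ (φ : S3 × S3 →* ↥(Cfsg.isometryGroup (ZMod 2) (Cfsg.quadFormPlus 2 (ZMod 2))))
    (t : ↥(Cfsg.isometryGroup (ZMod 2) (Cfsg.quadFormPlus 2 (ZMod 2)))),
    Function.Injective φ ∧ ∀ x, t * φ x * t⁻¹ = φ x.swap := by
  obtain ⟨eS⟩ := Linear.sl_two_two_iso (F := ZMod 2) (ZMod.card 2)
  let R := (MulAut.conj tIso).toMonoidHom.comp lHom
  have hR : ∀ g, ((R g).1 : Matrix I4 I4 (ZMod 2)) = Rm g.1 := fun g => tm_conj g.1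
  have hcomm : ∀ g h, Commute (lHom g) (R h) := by
    intro g h
    refine Subtype.ext (Units.ext ?_)
    show ((lHom g).1 : Matrix I4 I4 (ZMod 2)) * (R h).1 = (R h).1 * ((lHom g).1 : Matrix I4 I4 (ZMod 2))
    rw [hR]
    exact LR_comm g.1 h.1
  have hinj : Function.Injective (lHom.noncommCoprod R hcomm) := by
    rw [injective_iff_map_eq_one]
    rintro ⟨g, h⟩ hgh
    have h1 : lHom g = R h⁻¹ := by rw [map_inv]; exact eq_inv_of_mul_eq_one_left hgh
    have h3 : Lm g.1 = Rm (h⁻¹).1 := by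
      rw [← hR, ← h1]; rfl
    have hg : g = 1 := Subtype.ext (LR_eq g.1 (h⁻¹).1 g.2 h3)
    subst hg
    rw [map_one] at h1
    have h4 : lHom h⁻¹ = lHom 1 := by
      rw [map_one]
      exact (MulAut.conj tIso).injective (h1.symm.trans (map_one _).symm)
    have h5 : h⁻¹ = 1 := Subtype.ext (Lm_inj (congrArg
      (fun x : ↥(Cfsg.isometryGroup (ZMod 2) (Cfsg.quadFormPlus 2 (ZMod 2))) =>
        (x.1 : Matrix I4 I4 (ZMod 2))) h4))
    rw [inv_eq_one.1 h5]; rfl
  refine ⟨(lHom.noncommCoprod R hcomm).comp (eS.symm.prodCongr eS.symm).toMonoidHom, tIso,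
    hinj.comp (eS.symm.prodCongr eS.symm).injective, fun x => ?_⟩
  show tIso * (lHom (eS.symm x.1) * R (eS.symm x.2)) * tIso⁻¹ =
    lHom (eS.symm x.2) * R (eS.symm x.1)
  have htt : tIso * tIso = 1 := Subtype.ext (Units.ext (by decide +kernel : Tm * Tm = 1))
  have hti : tIso⁻¹ = tIso := inv_eq_of_mul_eq_one_right htt
  have h1 : ∀ g, tIso * lHom g * tIso⁻¹ = R g := fun g => rfl
  have h2 : ∀ g, tIso * R g * tIso⁻¹ = lHom g := fun g => by
    rw [← h1, hti, ← mul_assoc, ← mul_assoc, htt, one_mul, mul_assoc, htt, mul_one]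
  rw [(hcomm (eS.symm x.2) (eS.symm x.1)).eq, ← h1 (eS.symm x.1), ← h2 (eS.symm x.2)]
  group

theorem steinberg_plus_four_two {F : Type*} [Field F] [Fintype F] (hF : Fintype.card F = 2) :
    ∃ χ : Cfsg.POmega F (Cfsg.quadFormPlus 2 F) → ℂ,
      Cfsg.IsIrrCharacter (Cfsg.POmega F (Cfsg.quadFormPlus 2 F)) χ ∧
      ∀ P : Sylow 2 (Cfsg.POmega F (Cfsg.quadFormPlus 2 F)), χ 1 = Nat.card P ∧
        ∀ x : Cfsg.POmega F (Cfsg.quadFormPlus 2 F), x ∈ P → x ≠ 1 → χ x = 0 := by
  let e : ZMod 2 ≃+* F := ZMod.ringEquivOfPrime F Nat.prime_two hF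
  let g : GL I4 (ZMod 2) ≃* GL I4 F := Units.mapEquiv e.mapMatrix.toMulEquiv
  have hq : ∀ (M : GL I4 (ZMod 2)) (u : V4),
      Cfsg.quadFormPlus 2 F ((g M).1 *ᵥ (e ∘ u)) = e (Cfsg.quadFormPlus 2 (ZMod 2) (M.1 *ᵥ u)) := by
    intro M u
    have h : (g M).1 *ᵥ (e ∘ u) = e ∘ (M.1 *ᵥ u) :=
      funext fun i => (RingHom.map_mulVec e.toRingHom M.1 u i).symm
    rw [h]
    simp [Cfsg.quadFormPlus]
  have hmap : (Cfsg.isometryGroup (ZMod 2) (Cfsg.quadFormPlus 2 (ZMod 2))).map g.toMonoidHom =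
      Cfsg.isometryGroup F (Cfsg.quadFormPlus 2 F) := by
    have hq0 : ∀ u : V4, Cfsg.quadFormPlus 2 F (e ∘ u) = e (Cfsg.quadFormPlus 2 (ZMod 2) u) :=
      fun u => by simp [Cfsg.quadFormPlus]
    ext M
    obtain ⟨M, rfl⟩ := g.surjective M
    refine Iff.trans (Subgroup.mem_map_iff_mem (f := g.toMonoidHom) g.injective) ?_
    constructor
    · intro h u v
      obtain ⟨u, rfl⟩ : ∃ u' : V4, e ∘ u' = u := ⟨e.symm ∘ u, funext fun i => e.apply_symm_apply _⟩
      show Cfsg.quadFormPlus 2 F ((g M).1 *ᵥ (e ∘ u)) = Cfsg.quadFormPlus 2 F (e ∘ u)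
      rw [hq, hq0]
      exact congrArg e (h u u)
    · intro h u v
      refine e.injective ?_
      show e (Cfsg.quadFormPlus 2 (ZMod 2) (M.1 *ᵥ u)) = e (Cfsg.quadFormPlus 2 (ZMod 2) u)
      rw [← hq, ← hq0]
      exact h (e ∘ u) (e ∘ u)
  let ι := ((Cfsg.isometryGroup (ZMod 2) (Cfsg.quadFormPlus 2 (ZMod 2))).equivMapOfInjective
    g.toMonoidHom g.injective).trans (MulEquiv.subgroupCongr hmap)
  obtain ⟨φ, t, hφ, ht⟩ := exists_wreath
  exact steinberg_abstract (O := ↥(Cfsg.isometryGroup F (Cfsg.quadFormPlus 2 F)))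
    (by rw [← Nat.card_congr ι.toEquiv]; exact card_iso) (ι.toMonoidHom.comp φ) (ι.injective.comp hφ)
    (ι t) fun x => by
      show ι t * ι (φ x) * (ι t)⁻¹ = ι (φ x.swap)
      rw [← map_inv, ← map_mul, ← map_mul, ht]

end Cfsg.Agent.ChamberSt.PlusFourTwo
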